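/-
In the presented Held group the subgroup generated by a, c, d, e, f, (ab)² and (bcde)⁷ has a normal subgroup of index two
isomorphic to Sp₄(4); the permutation group of degree 2058 (helper16).
-/
import Cfsg.Agent.Lib.ToddCox.HeCov.Base
import Cfsg.Agent.Lib.ToddCox.SP44O.Main
import Cfsg.Agent.Lib.ToddCox.F4
import Cfsg.Agent.S0245
import Cfsg.Prelude.Def_Sporadic
import Cfsg.Prelude.Def_SporadicB

set_option autoImplicit false
set_option maxRecDepth 100000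

namespace Cfsg.Agent.Lib.ToddCox.HeCov

open Cfsg.Spor Cfsg.Agent.Lib.ToddCox.HeO
open Cfsg.Agent.Lib.ToddCox.He2058 (rels RL sg LT Iv Sl Gl letters rep_exists tab inv reach index_eq Sw)

def EmbS : OPSP44.Gen → List ℕ
  | .a => [2, 4, 1, 0, 4, 2, 4, 2, 6, 3, 0, 4, 2, 4, 2, 6, 3, 0, 4, 2, 4, 2, 6, 3, 1, 4, 2]
  | .b => [6, 6, 5, 1, 2, 1, 4, 2, 4, 2, 6, 3, 0, 4, 2, 4, 2, 6, 3, 0, 4, 2, 4, 2, 6, 3, 0, 1, 2, 1, 5, 6]
  | .c => [5, 4, 1, 4, 2, 4, 2, 6, 3, 0, 4, 2, 4, 2, 6, 3, 0, 4, 2, 4, 2, 6, 3, 0, 1, 4, 5]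
  | .d => [4, 6, 6, 3, 1, 2, 1, 0, 4, 2, 4, 2, 6, 3, 0, 4, 2, 4, 2, 6, 3, 0, 4, 2, 4, 2, 6, 3, 1, 2, 1, 3, 6, 4]
  | .e => [2, 4, 2, 1, 4, 2, 4, 2, 6, 3, 0, 4, 2, 4, 2, 6, 3, 0, 4, 2, 4, 2, 6, 3, 0, 1, 2, 4, 2]
  | .f => [4, 6, 6, 5, 4, 1, 2, 1, 0, 4, 2, 4, 2, 6, 3, 0, 4, 2, 4, 2, 6, 3, 0, 4, 2, 4, 2, 6, 3, 1, 2, 1, 4, 5, 6, 4]
  | .g => [2, 6, 6, 4, 6, 6, 2, 3, 1, 5, 2, 6, 5, 6, 4, 0, 6, 2, 1, 3, 2, 6, 4, 6, 2]
  | .h => [3, 2, 4, 3, 1, 4, 2, 4, 2, 6, 3, 0, 4, 2, 4, 2, 6, 3, 0, 4, 2, 4, 2, 6, 3, 0, 1, 3, 4, 2, 3]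

def Embw (a : OPSP44.Gen) : List ℕ := (EmbS a).flatMap (fun i => Sw.getD i [])

theorem Emb_let : ∀ r ∈ coxList OPSP44.edges ++ OPSP44.extra, ∀ a ∈ wsubst Embw inv r, a < 7 := by decide +kernel
theorem Emb_fix : ∀ r ∈ coxList OPSP44.edges ++ OPSP44.extra, ∀ b ∈ baseL, tabW tab (wsubst Embw inv r) b = b := by decide +kernel

theorem Emb_rel : ∀ r ∈ coxList OPSP44.edges ++ OPSP44.extra, FreeGroup.lift (fun a => wordVal gen (Embw a)) r = 1 := by
  intro r hr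
  rw [lift_eq_wsubst gen inv letters.genInv]
  exact word_one (Emb_let r hr) (Emb_fix r hr)

abbrev QEmb : Type := PresentedGroup (coxRelators OPSP44.edges ∪ {r | r ∈ OPSP44.extra})

noncomputable def φEmb : QEmb →* PresentedGroup rels := presMap OPSP44.edges OPSP44.extra _ Emb_rel

theorem φEmb_ne : φEmb (PresentedGroup.of .a) ≠ 1 := by
  show presMap OPSP44.edges OPSP44.extra _ Emb_rel (PresentedGroup.of .a) ≠ 1
  rw [presMap_of]
  exact word_ne_one (by decide +kernel) (k := 1) (by norm_num) (by decide +kernel)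

theorem φEmb_inj : Function.Injective φEmb := injective_of_simple SP44O.main.1 φEmb φEmb_ne

theorem Emb_Sw : ∀ i, i < 7 → (Sw.getD i [] = relW sg (Sl.getD i 1) ∧ Sl.getD i 1 ∈ Sl) := by decide +kernel

theorem Emb_idx : ∀ a, ∀ i ∈ EmbS a, i < 7 := by
  intro a
  cases a <;> decide +kernel

theorem φEmb_mem (q : QEmb) : φEmb q ∈ subG rels Sl := by
  have : φEmb.range ≤ subG rels Sl := by
    apply range_le_of_gens
    intro a
    show presMap OPSP44.edges OPSP44.extra _ Emb_rel (PresentedGroup.of a) ∈ _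
    rw [presMap_of]
    apply wordVal_flatMap_mem
    intro i hi
    obtain ⟨h1, h2⟩ := Emb_Sw i (Emb_idx a i hi)
    rw [h1]
    exact Sl_word_mem _ h2
  exact this ⟨q, rfl⟩

noncomputable def ψEmb : QEmb →* subG rels Sl := φEmb.codRestrict _ φEmb_mem

theorem ψEmb_inj : Function.Injective ψEmb := by
  intro a b hab
  exact φEmb_inj (congrArg Subtype.val hab)

theorem card_HS : Nat.card (subG rels Sl) = 1958400 := by
  obtain ⟨ρ, hρ, hinj, hcard⟩ := rep_faithful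
  have h := Subgroup.card_mul_index (subG rels Sl)
  rw [index_eq, hcard] at h
  exact Nat.eq_of_mul_eq_mul_right (by norm_num : 0 < 2058) (h.trans (by norm_num))

/-! The matrices. -/

abbrev SP : Type := Matrix.symplecticGroup (Fin 2) F4
abbrev M4 : Type := Matrix (Fin 2 ⊕ Fin 2) (Fin 2 ⊕ Fin 2) F4

def ma : M4 := Matrix.fromBlocks !![.l, .o; .o, .l] !![.o, .o; .o, .o] !![.l, .o; .o, .o] !![.l, .o; .o, .l]
def mb : M4 := Matrix.fromBlocks !![.l, .o; .o, .l] !![.l, .o; .o, .o] !![.o, .o; .o, .o] !![.l, .o; .o, .l]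
def mc : M4 := Matrix.fromBlocks !![.l, .o; .o, .l] !![.o, .o; .o, .o] !![.w, .o; .o, .o] !![.l, .o; .o, .l]
def md : M4 := Matrix.fromBlocks !![.l, .o; .o, .l] !![.o, .o; .o, .o] !![.o, .o; .o, .l] !![.l, .o; .o, .l]
def me : M4 := Matrix.fromBlocks !![.l, .o; .o, .l] !![.o, .o; .o, .l] !![.o, .o; .o, .o] !![.l, .o; .o, .l]
def mf : M4 := Matrix.fromBlocks !![.l, .o; .o, .l] !![.o, .o; .o, .o] !![.o, .o; .o, .w] !![.l, .o; .o, .l]
def mg : M4 := Matrix.fromBlocks !![.o, .l; .l, .o] !![.o, .o; .o, .o] !![.o, .o; .o, .o] !![.o, .l; .l, .o]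
def mh : M4 := Matrix.fromBlocks !![.l, .o; .o, .l] !![.o, .o; .o, .o] !![.l, .l; .l, .l] !![.l, .o; .o, .l]

def ta : SP := ⟨ma, SymplecticGroup.mem_iff.mpr (by decide +kernel)⟩
def tb : SP := ⟨mb, SymplecticGroup.mem_iff.mpr (by decide +kernel)⟩
def tc : SP := ⟨mc, SymplecticGroup.mem_iff.mpr (by decide +kernel)⟩
def td : SP := ⟨md, SymplecticGroup.mem_iff.mpr (by decide +kernel)⟩
def te : SP := ⟨me, SymplecticGroup.mem_iff.mpr (by decide +kernel)⟩
def tf : SP := ⟨mf, SymplecticGroup.mem_iff.mpr (by decide +kernel)⟩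
def tg : SP := ⟨mg, SymplecticGroup.mem_iff.mpr (by decide +kernel)⟩
def th : SP := ⟨mh, SymplecticGroup.mem_iff.mpr (by decide +kernel)⟩

def T : OPSP44.Gen → SP
  | .a => ta
  | .b => tb
  | .c => tc
  | .d => td
  | .e => te
  | .f => tf
  | .g => tg
  | .h => th

theorem T_rels : ∀ r ∈ coxList OPSP44.edges ++ OPSP44.extra, FreeGroup.lift T r = 1 := by decide +kernel

noncomputable def φP : QEmb →* SP := presMap OPSP44.edges OPSP44.extra T T_rels

theorem φP_ne : φP (PresentedGroup.of .a) ≠ 1 := by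
  show presMap OPSP44.edges OPSP44.extra T T_rels (PresentedGroup.of .a) ≠ 1
  rw [presMap_of]
  decide +kernel

theorem φP_inj : Function.Injective φP := injective_of_simple SP44O.main.1 φP φP_ne

theorem card_SP : Nat.card SP = 979200 := by
  have h := Cfsg.Agent.S0245.result (F := F4) F4.card_eq 2
  rw [h]
  norm_num [Finset.prod_range_succ]

theorem card_QEmb : Nat.card QEmb = 979200 := SP44O.main.2

theorem main_S1682 : ∃ N : Subgroup (subG rels Sl), N.Normal ∧ N.index = 2 ∧ Nonempty (N ≃* SP) :=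
  index_two_of_embed ψEmb ψEmb_inj φP φP_inj (card_SP.trans card_QEmb.symm) (by rw [card_QEmb]; norm_num) (by rw [card_HS, card_QEmb])

/-! The permutation group. -/

theorem main_S0462 : ∃ H : Subgroup (Equiv.Perm (Fin 2058)), Cfsg.IsHe H ∧ MulAction.IsPretransitive H (Fin 2058) ∧
    ∃ (F : Type) (_ : Field F) (_ : Fintype F), Fintype.card F = 4 ∧
      ∃ N : Subgroup (MulAction.stabilizer H (0 : Fin 2058)), N.index = 2 ∧ Nonempty (N ≃* Matrix.symplecticGroup (Fin 2) F) := by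
  obtain ⟨ρ, hρ, hinj, hcard⟩ := rep_faithful
  have htrans := rep_trans hρ (by norm_num) reach
  have htrans' : ∀ i : Fin 2058, ∃ g, ρ g 0 = i := htrans
  refine ⟨ρ.range, ?_, range_pretransitive ρ htrans', F4, inferInstance, inferInstance, F4.card_eq, ?_⟩
  · obtain ⟨h1, h2⟩ := simple_range_of_inj HeO.main.1 ρ hinj
    exact ⟨h1, h2.trans hcard⟩
  · have hstab : Nat.card (MulAction.stabilizer ρ.range (0 : Fin 2058)) = 1958400 := by
      have h := card_stabilizer_mul ρ hinj htrans'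
      rw [hcard] at h
      exact Nat.eq_of_mul_eq_mul_right (by norm_num : 0 < 2058) (h.trans (by norm_num))
    have hfix : ∀ g ∈ subG rels Sl, ρ g 0 = 0 := subG_fix hρ He2058.fix0
    let ι : QEmb →* MulAction.stabilizer ρ.range (0 : Fin 2058) :=
      (ρ.rangeRestrict.comp φEmb).codRestrict _ (fun q => by
        show ρ (φEmb q) 0 = 0
        exact hfix _ (φEmb_mem q))
    have hι : Function.Injective ι := by
      intro a b hab
      have h1 : ρ (φEmb a) = ρ (φEmb b) := congrArg (fun x => ((x : ρ.range) : Equiv.Perm (Fin 2058))) (congrArg Subtype.val hab)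
      exact φEmb_inj (hinj h1)
    obtain ⟨N, _, h2, h3⟩ := index_two_of_embed ι hι φP φP_inj (card_SP.trans card_QEmb.symm) (by rw [card_QEmb]; norm_num)
      (by rw [hstab, card_QEmb])
    exact ⟨N, h2, h3⟩

end Cfsg.Agent.Lib.ToddCox.HeCov
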